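-- Team project GEN2 (S2405), package [G2], step (3b): the characteristic-3 case (helper80).
import Cfsg.Agent.Lib.Helper36.Gen2.Defs

set_option autoImplicit false

namespace Cfsg.Agent.Lib.Helper80.Gen2

open Cfsg Cfsg.Lie Cfsg.Agent.Lib.Helper18 Cfsg.Agent.Lib.Helper17

theorem hG2_80 : chevG2 ∈ [chevG2, chevB2, chevD4, chevF4, chevE6, chevE7, chevE8] :=
  List.mem_cons_self

section grp

variable {G : Type*} [Group G]

theorem comm_eq80 (p m C : G) (h : p * m = m * p * C) : p⁻¹ * m⁻¹ * p * m = C := by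
  rw [mul_assoc, mul_assoc, h]; group

theorem conj_comm80 (a b c T : G) (h1 : a * b = b * a * T) (h2 : c⁻¹ * b = b * c⁻¹)
    (h3 : c * T = T * c) : (a * c⁻¹)⁻¹ * b⁻¹ * (a * c⁻¹) * b = T := by
  have e1 : (a * c⁻¹)⁻¹ * b⁻¹ * (a * c⁻¹) * b = c * a⁻¹ * b⁻¹ * a * (c⁻¹ * b) := by group
  rw [e1, h2]
  have e2 : c * a⁻¹ * b⁻¹ * a * (b * c⁻¹) = c * a⁻¹ * b⁻¹ * (a * b) * c⁻¹ := by group
  rw [e2, h1]
  have e3 : c * a⁻¹ * b⁻¹ * (b * a * T) * c⁻¹ = c * T * c⁻¹ := by group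
  rw [e3, h3]; group

end grp

section g2

variable {F : Type*} [Field F]

/-- the root elements of `G₂` in `GL` -/
noncomputable abbrev X80 (r : ℕ) (t : F) : GL chevG2.Idx F := xU chevG2 hG2_80 r t

theorem X80_add (r : ℕ) (hr : r < chevG2.nroots) (t u : F) :
    X80 r t * X80 r u = X80 r (t + u) := xU_mul_xU chevG2 hG2_80 r hr t u

theorem X80_inv (r : ℕ) (t : F) : (X80 r t)⁻¹ = X80 r (-t) := xU_inv chevG2 hG2_80 r t

theorem X80_cf (r s : ℕ) (hr : r < chevG2.nroots) (hs : s < chevG2.nroots) (hsr : s ≠ r)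
    (hsn : s ≠ chevG2.neg r) (t u : F) :
    X80 s u * X80 r t = X80 r t * X80 s u * wordU chevG2 hG2_80 (chevG2.commWord F r s t u) :=
  Units.ext (by
    simp only [Units.val_mul, coe_xU, coe_wordU]
    exact cf_of_mem chevG2 hG2_80 r s hr hs hsr hsn t u)

theorem X80_comm (r s : ℕ) (hr : r < chevG2.nroots) (hs : s < chevG2.nroots) (hsr : s ≠ r)
    (hsn : s ≠ chevG2.neg r) (hct : chevG2.commTerms r s = []) (t u : F) :
    X80 s u * X80 r t = X80 r t * X80 s u := by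
  rw [X80_cf r s hr hs hsr hsn t u]
  unfold ChevalleyDatum.commWord
  rw [hct]
  simp [wordU]

theorem cf_3_11_80 (t u : F) :
    X80 11 u * X80 3 t = X80 3 t * X80 11 u *
      (X80 9 (-(t * u)) * (X80 7 (t ^ 2 * u) * (X80 5 (t ^ 3 * u) * X80 10 (-(t ^ 3 * u ^ 2))))) := by
  have hct : chevG2.commTerms 3 11 = [(9, 1, 1, 1), (7, 1, 2, 1), (5, -1, 3, 1), (10, 1, 3, 2)] := by
    decide
  rw [X80_cf 3 11 (by decide) (by decide) (by decide) (by decide) t u]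
  unfold ChevalleyDatum.commWord
  rw [hct]
  simp only [wordU, List.map_cons, List.map_nil, List.prod_cons, List.prod_nil, mul_one]
  have e1 : ((1 : ℤ) : F) * (-t) ^ 1 * u ^ 1 = -(t * u) := by push_cast; ring
  have e2 : ((1 : ℤ) : F) * (-t) ^ 2 * u ^ 1 = t ^ 2 * u := by push_cast; ring
  have e3 : ((-1 : ℤ) : F) * (-t) ^ 3 * u ^ 1 = t ^ 3 * u := by push_cast; ring
  have e4 : ((1 : ℤ) : F) * (-t) ^ 3 * u ^ 2 = -(t ^ 3 * u ^ 2) := by push_cast; ring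
  rw [e1, e2, e3, e4]

theorem cf_8_5_80 (v w : F) :
    X80 5 w * X80 8 v = X80 8 v * X80 5 w *
      (X80 7 (v * w) * (X80 9 (-(v ^ 2 * w)) * (X80 11 (v ^ 3 * w) * X80 10 (v ^ 3 * w ^ 2)))) := by
  have hct : chevG2.commTerms 8 5 = [(7, -1, 1, 1), (9, -1, 2, 1), (11, -1, 3, 1), (10, -1, 3, 2)] := by
    decide
  rw [X80_cf 8 5 (by decide) (by decide) (by decide) (by decide) v w]
  unfold ChevalleyDatum.commWord
  rw [hct]
  simp only [wordU, List.map_cons, List.map_nil, List.prod_cons, List.prod_nil, mul_one]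
  have e1 : ((-1 : ℤ) : F) * (-v) ^ 1 * w ^ 1 = v * w := by push_cast; ring
  have e2 : ((-1 : ℤ) : F) * (-v) ^ 2 * w ^ 1 = -(v ^ 2 * w) := by push_cast; ring
  have e3 : ((-1 : ℤ) : F) * (-v) ^ 3 * w ^ 1 = v ^ 3 * w := by push_cast; ring
  have e4 : ((-1 : ℤ) : F) * (-v) ^ 3 * w ^ 2 = v ^ 3 * w ^ 2 := by push_cast; ring
  rw [e1, e2, e3, e4]

/-- cubing is onto in a finite field of characteristic 3 -/
theorem cube_surj80 [Finite F] (h3 : (3 : F) = 0) (w : F) : ∃ t : F, t ^ 3 = w := by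
  have hinj : Function.Injective (fun t : F => t ^ 3) := by
    intro a b hab
    have hab' : a ^ 3 = b ^ 3 := hab
    have h : (a - b) ^ 3 = 0 := by
      have e : (a - b) ^ 3 = a ^ 3 - b ^ 3 - 3 * (a * b * (a - b)) := by ring
      rw [e, h3, hab']; ring
    exact sub_eq_zero.mp (pow_eq_zero_iff (by norm_num) |>.mp h)
  exact Finite.surjective_of_injective hinj w

/-- **Step (3b) of [G2]**: in characteristic 3, a subgroup containing the short root elements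
`x_3, x_7, x_8, x_9` and the conjugates `x_11(-1) x_3(s) x_11(1)` contains the long root subgroup
`X_10`. -/
theorem g2_char3 [Finite F] (K : Subgroup (GL chevG2.Idx F)) (h3 : (3 : F) = 0)
    (hw : ∃ w0 : F, w0 ≠ 0 ∧ w0 ≠ 1)
    (h3K : ∀ t : F, X80 3 t ∈ K) (h7K : ∀ t : F, X80 7 t ∈ K) (h8K : ∀ t : F, X80 8 t ∈ K)
    (h9K : ∀ t : F, X80 9 t ∈ K)
    (hc : ∀ s : F, X80 11 (-1) * X80 3 s * X80 11 1 ∈ K) :
    ∀ t : F, X80 10 t ∈ K := by
  -- Step A/B: y(w) = x_5(w) x_10(-w) ∈ K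
  have hY : ∀ w : F, X80 5 w * X80 10 (-w) ∈ K := by
    intro w
    obtain ⟨t, rfl⟩ := cube_surj80 h3 w
    have hcf := cf_3_11_80 t (1 : F)
    have hW := comm_eq80 _ _ _ hcf
    have hWK : (X80 11 (1 : F))⁻¹ * (X80 3 t)⁻¹ * X80 11 1 * X80 3 t ∈ K := by
      rw [X80_inv, X80_inv]
      exact K.mul_mem (hc (-t)) (h3K t)
    rw [hW] at hWK
    have h1 : X80 5 (t ^ 3) * X80 10 (-t ^ 3) =
        (X80 7 (t ^ 2 * 1))⁻¹ * ((X80 9 (-(t * 1)))⁻¹ *
          (X80 9 (-(t * 1)) * (X80 7 (t ^ 2 * 1) * (X80 5 (t ^ 3 * 1) * X80 10 (-(t ^ 3 * 1 ^ 2)))))) := by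
      rw [inv_mul_cancel_left, inv_mul_cancel_left]
      simp
    rw [h1]
    exact K.mul_mem (K.inv_mem (h7K _)) (K.mul_mem (K.inv_mem (h9K _)) hWK)
  -- Step C: z(V, w) = x_11(V w) x_10(V w²) ∈ K
  have hZ : ∀ V w : F, X80 11 (V * w) * X80 10 (V * w ^ 2) ∈ K := by
    intro V w
    obtain ⟨v, rfl⟩ := cube_surj80 h3 V
    have hcf := cf_8_5_80 v w
    have h2 : (X80 10 w)⁻¹ * X80 8 v = X80 8 v * (X80 10 w)⁻¹ := by
      rw [X80_inv]
      exact X80_comm 8 10 (by decide) (by decide) (by decide) (by decide) (by decide) v (-w)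
    have c7 : ∀ a : F, Commute (X80 10 w) (X80 7 a) := fun a =>
      X80_comm 7 10 (by decide) (by decide) (by decide) (by decide) (by decide) a w
    have c9 : ∀ a : F, Commute (X80 10 w) (X80 9 a) := fun a =>
      X80_comm 9 10 (by decide) (by decide) (by decide) (by decide) (by decide) a w
    have c11 : ∀ a : F, Commute (X80 10 w) (X80 11 a) := fun a =>
      X80_comm 11 10 (by decide) (by decide) (by decide) (by decide) (by decide) a w
    have c10 : ∀ a : F, Commute (X80 10 w) (X80 10 a) := fun a => by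
      show X80 10 w * X80 10 a = X80 10 a * X80 10 w
      rw [X80_add 10 (by decide), X80_add 10 (by decide), add_comm]
    have h3' : X80 10 w * (X80 7 (v * w) * (X80 9 (-(v ^ 2 * w)) * (X80 11 (v ^ 3 * w) *
        X80 10 (v ^ 3 * w ^ 2)))) = (X80 7 (v * w) * (X80 9 (-(v ^ 2 * w)) * (X80 11 (v ^ 3 * w) *
        X80 10 (v ^ 3 * w ^ 2)))) * X80 10 w :=
      ((c7 _).mul_right ((c9 _).mul_right ((c11 _).mul_right (c10 _)))).eq
    have hE := conj_comm80 _ _ _ _ hcf h2 h3'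
    have hEK : (X80 5 w * (X80 10 w)⁻¹)⁻¹ * (X80 8 v)⁻¹ * (X80 5 w * (X80 10 w)⁻¹) * X80 8 v ∈ K := by
      have hy : X80 5 w * (X80 10 w)⁻¹ ∈ K := by rw [X80_inv]; exact hY w
      exact K.mul_mem (K.mul_mem (K.mul_mem (K.inv_mem hy) (K.inv_mem (h8K v))) hy) (h8K v)
    rw [hE] at hEK
    have h1 : X80 11 (v ^ 3 * w) * X80 10 (v ^ 3 * w ^ 2) =
        (X80 9 (-(v ^ 2 * w)))⁻¹ * ((X80 7 (v * w))⁻¹ *
          (X80 7 (v * w) * (X80 9 (-(v ^ 2 * w)) * (X80 11 (v ^ 3 * w) *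
            X80 10 (v ^ 3 * w ^ 2))))) := by
      rw [inv_mul_cancel_left, inv_mul_cancel_left]
    rw [h1]
    exact K.mul_mem (K.inv_mem (h9K _)) (K.mul_mem (K.inv_mem (h7K _)) hEK)
  -- Step D: x_10(t) ∈ K
  obtain ⟨w0, hw0, hw1⟩ := hw
  intro t
  have hne : w0 - 1 ≠ 0 := sub_ne_zero.mpr hw1
  have hz1 := hZ (t / (w0 - 1)) 1
  have hz2 := hZ (t / (w0 - 1) / w0) w0
  have e1 : t / (w0 - 1) / w0 * w0 = t / (w0 - 1) := by field_simp
  have e2 : t / (w0 - 1) / w0 * w0 ^ 2 = t / (w0 - 1) * w0 := by field_simp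
  rw [e1, e2] at hz2
  rw [mul_one, one_pow, mul_one] at hz1
  have h := K.mul_mem (K.inv_mem hz1) hz2
  have e3 : (X80 11 (t / (w0 - 1)) * X80 10 (t / (w0 - 1)))⁻¹ *
      (X80 11 (t / (w0 - 1)) * X80 10 (t / (w0 - 1) * w0)) = X80 10 t := by
    rw [mul_inv_rev, mul_assoc, inv_mul_cancel_left, X80_inv, X80_add 10 (by decide)]
    congr 1
    field_simp
    ring
  rw [e3] at h
  exact h

end g2

end Cfsg.Agent.Lib.Helper80.Gen2
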